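import Cfsg.Agent.H772.S8.KMat
import Cfsg.Agent.H715.Fpr.MathData
import Cfsg.Agent.SmallSimple.ClassDvd

/-!
# `M22` has no subgroup `M11` (helper772)

An element `x` of order 3 of `M22` has `|C(x)| = 36`, and `C(x)` contains two elements of order 3 which do not commute; the
centralizer of an element of order 3 in `M11` has order 18.
Consequence: a proper subgroup of `M22` of order divisible by 11 has index at least 672.
-/

set_option autoImplicit false

namespace Cfsg.Agent.H772.S8.M22

open Cfsg Subgroup Cfsg.Agent.H940.Eng Cfsg.Agent.H940.Eng.D Cfsg.Agent.H715.Fpr.MathData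
open Cfsg.Agent.OrdDiv Cfsg.Agent.SporadicStructure.M24El Cfsg.Agent.H729.M24Deg Cfsg.Agent.H729.M22Deg
open Cfsg.Agent.SporadicA.GolayBase Cfsg.Agent.SporadicA.GolayPerm Cfsg.Agent.H729.MData Cfsg.Agent.H334.Ore.M22Data

universe u

def c3 : ℕ := 971674527269832880431752993353340000
def a3 : ℕ := 964028128494263514906457377560639072
def b3 : ℕ := 960154787406275494462505959892096512

theorem okc : ok c3 = true := by decide +kernel
theorem oka : ok a3 = true := by decide +kernel
theorem okb : ok b3 = true := by decide +kernel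

/-- the other representatives do not have order 3 -/
theorem chk3 : (D.all fun r => Nat.beq r.c c3 || (ok r.c && (List.range 24).any fun i =>
    !(Nat.beq (papp (ppow r.c 3) i) i))) = true := by decide +kernel

theorem three_conj {g : Spor.M22} (hg : orderOf g = 3) : ∃ x : Spor.M22, inc x = el c3 ∧ IsConj x g := by
  have hg3 : g ^ 3 = 1 := by rw [← hg]; exact pow_orderOf_eq_one g
  rcases Cfsg.Agent.H334.Ore.M22.cov g with h | ⟨r, hr, x, hx, hxg⟩
  · rw [h, orderOf_one] at hg
    norm_num at hg
  · have hx3 : x ^ 3 = 1 := by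
      obtain ⟨t, ht⟩ := isConj_iff.1 hxg
      have h1 : t * x ^ 3 * t⁻¹ = 1 := by rw [← conj_pow, ht, hg3]
      have h2 : x ^ 3 = t⁻¹ * (t * x ^ 3 * t⁻¹) * t := by group
      rw [h2, h1]
      group
    have h1 := chk3
    rw [List.all_eq_true] at h1
    have h2 := h1 r hr
    rw [Bool.or_eq_true, Bool.and_eq_true, List.any_eq_true] at h2
    rcases h2 with h2 | ⟨hok, i, hi, h2⟩
    · exact ⟨x, by rw [hx, Nat.eq_of_beq_eq_true h2], hxg⟩
    · exfalso
      refine el_ne_one (Cfsg.Agent.H729.Count.ok_ppow hok 3) i (List.mem_range.1 hi) (by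
        rw [Bool.not_eq_true'] at h2
        exact h2) ?_
      rw [Cfsg.Agent.H729.Count.el_ppow hok, ← hx, ← map_pow, hx3, map_one]

/-- in a group of order at most 36 with a subgroup of order 18 the elements with `v ^ 3 = 1` commute -/
theorem comm_of_18 {C : Type u} [Group C] [Finite C] (hC : Nat.card C ≤ 36) (D : Subgroup C) (hD : Nat.card D = 18)
    {v w : C} (hv : v ^ 3 = 1) (hw : w ^ 3 = 1) : v * w = w * v := by
  have := Fact.mk Nat.prime_three
  have key : ∀ (A : Type u) [Group A] [Finite A] (B : Subgroup A), B.index = 1 ∨ B.index = 2 → ∀ v : A, v ^ 3 = 1 → v ∈ B := by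
    intro A _ _ B hB v hv
    rcases hB with hB | hB
    · rw [index_eq_one.1 hB]
      trivial
    · have h1 : v = (v * v) * (v * v) := by
        have h2 : v * v * (v * v) = v ^ 3 * v := by
          rw [pow_succ, pow_two]
          simp only [mul_assoc]
        rw [h2, hv, one_mul]
      rw [h1]
      exact mul_self_mem_of_index_two hB _
  have hDi : D.index = 1 ∨ D.index = 2 := by
    have h1 := D.card_mul_index
    rw [hD] at h1
    have h2 : 0 < D.index := Nat.pos_of_ne_zero index_ne_zero_of_finite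
    omega
  have hvD := key C D hDi v hv
  have hwD := key C D hDi w hw
  let P : Sylow 3 D := default
  have hP : Nat.card P = 3 ^ 2 := by
    rw [P.card_eq_multiplicity, hD]
    congr 1
    rw [show 18 = 3 ^ 2 * 2 by norm_num, Nat.factorization_mul (by norm_num) (by norm_num),
      Nat.Prime.factorization_pow Nat.prime_three]
    simp [Nat.factorization_eq_zero_of_not_dvd (show ¬ 3 ∣ 2 by norm_num)]
  have hPi : (P : Subgroup D).index = 2 := by
    have h1 := (P : Subgroup D).card_mul_index
    rw [hD] at h1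
    have h2 : Nat.card (P : Subgroup D) = 9 := hP
    rw [h2] at h1
    omega
  have hvP : (⟨v, hvD⟩ : D) ∈ (P : Subgroup D) := key D P (Or.inr hPi) _ (Subtype.ext hv)
  have hwP : (⟨w, hwD⟩ : D) ∈ (P : Subgroup D) := key D P (Or.inr hPi) _ (Subtype.ext hw)
  have h1 := (IsPGroup.isMulCommutative_of_card_eq_prime_sq hP).is_comm.comm (⟨⟨v, hvD⟩, hvP⟩ : P) ⟨⟨w, hwD⟩, hwP⟩
  exact congrArg (fun z : P => ((z : D) : C)) h1

theorem not_m11 {H : Subgroup Spor.M22} (hH : IsM11 H) : False := by
  have hfin : Finite Spor.M22 := Nat.finite_of_card_ne_zero (by rw [card22]; decide)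
  have := Fact.mk Nat.prime_three
  obtain ⟨x, hx⟩ := exists_prime_orderOf_dvd_card' (G := H) 3 (by rw [hH.2]; norm_num)
  have hxo : orderOf (x : Spor.M22) = 3 := by rw [Subgroup.orderOf_coe, hx]
  have h18 := Cfsg.Agent.SporadicA.M11Facts2.card_centralizer_three hH hx
  obtain ⟨y, hy, hyx⟩ := three_conj hxo
  obtain ⟨t, ht⟩ := isConj_iff.1 hyx
  -- the centralizer
  have h36 : Nat.card (centralizer ({(x : Spor.M22)} : Set Spor.M22)) ≤ 36 := by
    rw [← Cfsg.Agent.SmallSimple.ClassDvd.card_centralizer_conj hyx]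
    have h1 := Cfsg.Agent.H334.Ore.Mat.card_cent_le inc_injective Cfsg.Agent.H334.Ore.M22.hF
      (r := r1) (hC r1 (by simp [D])) (x := y) hy
    exact h1
  obtain ⟨a, ha⟩ := exists_el oka (by decide +kernel) (by decide +kernel)
  obtain ⟨b, hb⟩ := exists_el okb (by decide +kernel) (by decide +kernel)
  have hcomm : ∀ {u v : Spor.M22} {p q : ℕ}, inc u = el p → inc v = el q → ok p = true → ok q = true →
      Nat.beq (pcomp p q) (pcomp q p) = true → u * v = v * u := by
    intro u v p q hu hv hp hq h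
    apply inc_injective
    rw [map_mul, map_mul, hu, hv, ← el_pcomp hp hq, ← el_pcomp hq hp, Nat.eq_of_beq_eq_true h]
  have hay : a * y = y * a := hcomm ha hy oka okc (by decide +kernel)
  have hby : b * y = y * b := hcomm hb hy okb okc (by decide +kernel)
  have ha3 : a ^ 3 = 1 := by
    apply inc_injective
    rw [map_pow, ha, el_pow_eq_one oka (by decide +kernel), map_one]
  have hb3 : b ^ 3 = 1 := by
    apply inc_injective
    rw [map_pow, hb, el_pow_eq_one okb (by decide +kernel), map_one]
  have hab : a * b ≠ b * a := by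
    intro h
    have h1 : el (pcomp a3 b3) = el (pcomp b3 a3) := by
      rw [el_pcomp oka okb, el_pcomp okb oka, ← ha, ← hb, ← map_mul, ← map_mul, h]
    obtain ⟨i, hi, hi2⟩ : ∃ i < 24, Nat.beq (papp (pcomp a3 b3) i) (papp (pcomp b3 a3) i) = false := by
      decide +kernel
    have h2 := idx_el_smul (ok_pcomp oka okb) (pt i)
    have h3 := idx_el_smul (ok_pcomp okb oka) (pt i)
    rw [idx_pt hi] at h2 h3
    rw [h1, h3] at h2
    rw [h2, Nat.beq_refl] at hi2
    exact absurd hi2 (by decide)
  -- transport to the centralizer of `x`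
  set C := centralizer ({(x : Spor.M22)} : Set Spor.M22) with hCdef
  have hmem : ∀ u : Spor.M22, u * y = y * u → t * u * t⁻¹ ∈ C := by
    intro u hu
    rw [hCdef, mem_centralizer_singleton_iff, ← ht]
    calc t * u * t⁻¹ * (t * y * t⁻¹) = t * (u * y) * t⁻¹ := by group
      _ = t * (y * u) * t⁻¹ := by rw [hu]
      _ = t * y * t⁻¹ * (t * u * t⁻¹) := by group
  have hD : Nat.card (H.subgroupOf C) = 18 := by
    rw [← h18, ← card_map_of_injective C.subtype_injective,
      ← card_map_of_injective (K := centralizer ({x} : Set H)) H.subtype_injective]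
    congr 2
    ext z
    constructor
    · rintro ⟨⟨z', hz'⟩, h1, rfl⟩
      refine ⟨⟨z', h1⟩, ?_, rfl⟩
      show _ ∈ centralizer ({x} : Set H)
      rw [mem_centralizer_singleton_iff]
      exact Subtype.ext (mem_centralizer_singleton_iff.1 hz')
    · rintro ⟨z', h1, rfl⟩
      have h2 := mem_centralizer_singleton_iff.1 h1
      exact ⟨⟨(z' : Spor.M22), mem_centralizer_singleton_iff.2 (congrArg Subtype.val h2)⟩, z'.2, rfl⟩
  have hpow : ∀ u : Spor.M22, u ^ 3 = 1 → (t * u * t⁻¹) ^ 3 = 1 := by
    intro u hu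
    rw [conj_pow, hu]
    group
  have h1 := comm_of_18 h36 (H.subgroupOf C) hD (v := ⟨_, hmem a hay⟩) (w := ⟨_, hmem b hby⟩)
    (Subtype.ext (hpow a ha3)) (Subtype.ext (hpow b hb3))
  have h2 : t * a * t⁻¹ * (t * b * t⁻¹) = t * b * t⁻¹ * (t * a * t⁻¹) := congrArg Subtype.val h1
  apply hab
  have h3 : t * (a * b) * t⁻¹ = t * (b * a) * t⁻¹ := by
    calc t * (a * b) * t⁻¹ = t * a * t⁻¹ * (t * b * t⁻¹) := by group
      _ = t * b * t⁻¹ * (t * a * t⁻¹) := h2
      _ = t * (b * a) * t⁻¹ := by group
  exact mul_left_cancel (mul_right_cancel h3)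

theorem chk11 : chkPow l_m22 11 = true := by decide +kernel

/-- **a proper subgroup of `M22` of order divisible by 11 has order at most 660** -/
theorem card_le (B : Base) {T : Subgroup Spor.M22} (hT : T ≠ ⊤) (h11 : 11 ∣ Nat.card T) : Nat.card T ≤ 660 := by
  have hfin : Finite Spor.M22 := Nat.finite_of_card_ne_zero (by rw [card22]; decide)
  have hTn : Nat.card T ∣ n_m22 := card22 ▸ card_subgroup_dvd_card T
  have hTne : Nat.card T ≠ n_m22 := by
    intro h1
    apply hT
    apply eq_top_of_card_eq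
    rw [h1, card22]
  have hC : ∀ R : Subgroup Spor.M22, Nat.card R = 11 → Nat.card (centralizer (R : Set Spor.M22)) = 11 :=
    fun R hR => (cn22_11 hR).1
  obtain ⟨M, hs, hM, hrM, hd⟩ := simple_cases (ords_m22 B) card22 (r := 11) (N := 55) (by norm_num)
    (by decide +kernel) (fun R hR => (cn22_11 hR).2.dvd) h11
    (hno_of (by norm_num) h11 (fun R hR => card_centralizer_sub (by norm_num) hC T hR) v_m22 hTn chk11)
  have hd2 : Nat.card T ∣ Nat.card M * 5 := by
    have h1 : Nat.card M * 55 = Nat.card M * 5 * 11 := by ring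
    rw [h1] at hd
    exact Nat.dvd_of_mul_dvd_mul_right (by norm_num) hd
  have hMT : Nat.card M ∣ Nat.card T := card_subgroup_dvd_card M
  have h2 : Nat.card M = 11 ∨ Nat.card M = 660 ∨ Nat.card M = 7920 ∨ Nat.card M = 443520 := by
    rcases hM with h3 | h3
    · exact Or.inl h3
    · simp only [o_m22, List.mem_cons, List.not_mem_nil, or_false] at h3
      rcases h3 with h3 | h3 | h3 | h3 | h3 | h3 | h3 | h3 | h3 <;> rw [h3] at hrM ⊢ <;> revert hrM <;> decide
  have key : ∀ s : ℕ, Nat.card M = s → Nat.gcd (s * 5) n_m22 = s → Nat.card T = s := by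
    intro s h3 h4
    rw [h3] at hd2 hMT
    have h5 : Nat.card T ∣ Nat.gcd (s * 5) n_m22 := Nat.dvd_gcd hd2 hTn
    rw [h4] at h5
    exact Nat.dvd_antisymm h5 hMT
  rcases h2 with h3 | h3 | h3 | h3
  · rw [h3] at hd2
    exact (Nat.le_of_dvd (by norm_num) hd2).trans (by norm_num)
  · exact (key _ h3 (by decide +kernel)).le
  · exfalso
    have h4 := key _ h3 (by decide +kernel)
    have h5 : M = ⊤ := eq_top_of_card_eq M (by rw [h3, h4])
    rw [h5] at hs
    have h6 : IsSimpleGroup T := (Subgroup.topEquiv (G := T)).isSimpleGroup_congr.1 hs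
    exact not_m11 ⟨h6, h4⟩
  · exfalso
    exact hTne (key _ h3 (by decide +kernel))

end Cfsg.Agent.H772.S8.M22
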