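import Cfsg.Agent.H772.S8.NoM11

/-!
# `3 ^ 6` and `M22` (helper772, for the FROB row of `Co1` of helper68)
-/

set_option autoImplicit false

namespace Cfsg.Agent.H772.S8.NoM22

open Cfsg Subgroup Cfsg.Agent.H940.Eng

universe u v

/-- a simple group of order `|M22|`: proper subgroups of order divisible by 11 -/
theorem card_le_simple (B : Base) {M : Type u} [Group M] [Finite M] (hs : IsSimpleGroup M) (hM : Nat.card M = 443520)
    {H : Subgroup M} (hH : H ≠ ⊤) (h11 : 11 ∣ Nat.card H) : Nat.card H ≤ 660 := by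
  obtain ⟨e⟩ := Cfsg.Agent.S1663.result (G := M) ⟨hs, hM⟩
  have hc : Nat.card (H.map e.toMonoidHom) = Nat.card H := card_map_of_injective (f := e.toMonoidHom) e.injective
  rw [← hc]
  refine M22.card_le B (T := H.map e.toMonoidHom) ?_ (by rw [hc]; exact h11)
  intro h
  apply hH
  rw [eq_top_iff]
  intro x _
  have h1 : e x ∈ H.map e.toMonoidHom := by rw [h]; trivial
  obtain ⟨y, hy, hyx⟩ := h1
  rwa [e.injective hyx] at hy

/-- the fixed points of an element of prime order on a normal subgroup -/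
theorem fix_modEq {G : Type u} [Group G] [Finite G] {r : ℕ} (hr : r.Prime) {y : G} (hy : orderOf y = r) (P : Subgroup G)
    [P.Normal] : Nat.card P % r = Nat.card ↥(P ⊓ centralizer ({y} : Set G)) % r := by
  have := Fact.mk hr
  let _ : MulAction (zpowers y) P := {
    smul := fun a z => ⟨(a : G) * z * (a : G)⁻¹, (inferInstance : P.Normal).conj_mem _ z.2 _⟩
    one_smul := fun z => Subtype.ext (by show (1 : G) * z * (1 : G)⁻¹ = z; simp)
    mul_smul := fun a b z => Subtype.ext (by
      show ((a : G) * b) * z * ((a : G) * b)⁻¹ = a * (b * z * (b : G)⁻¹) * (a : G)⁻¹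
      group) }
  have hsm : ∀ (a : zpowers y) (z : P), ((a • z : P) : G) = (a : G) * z * (a : G)⁻¹ := fun _ _ => rfl
  have hRp : IsPGroup r (zpowers y) := IsPGroup.of_card (n := 1) (by rw [Nat.card_zpowers, hy, pow_one])
  have hmod : Nat.card P ≡ Nat.card (MulAction.fixedPoints (zpowers y) P) [MOD r] := hRp.card_modEq_card_fixedPoints P
  have h1 : Nat.card (MulAction.fixedPoints (zpowers y) P) = Nat.card ↥(P ⊓ centralizer ({y} : Set G)) := by
    refine Nat.card_congr ⟨fun z => ⟨((z : P) : G), mem_inf.2 ⟨(z : P).2, ?_⟩⟩,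
      fun z => ⟨⟨(z : G), (mem_inf.1 z.2).1⟩, ?_⟩, fun z => rfl, fun z => rfl⟩
    · rw [mem_centralizer_singleton_iff]
      have h3 := congrArg Subtype.val (z.2 ⟨y, mem_zpowers y⟩)
      rw [hsm] at h3
      have h4 : y * ((z : P) : G) * y⁻¹ = ((z : P) : G) := h3
      calc ((z : P) : G) * y = y * ((z : P) : G) * y⁻¹ * y := by rw [h4]
        _ = y * ((z : P) : G) := by group
    · rintro ⟨a, ha⟩
      apply Subtype.ext
      rw [hsm]
      obtain ⟨k, rfl⟩ := mem_zpowers_iff.1 ha
      have h3 : Commute (z : G) y := mem_centralizer_singleton_iff.1 (mem_inf.1 z.2).2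
      show y ^ k * (z : G) * (y ^ k)⁻¹ = z
      rw [← (h3.zpow_right k).eq]
      group
  rw [h1] at hmod
  exact hmod

/-- the stabilizer of `{z, z⁻¹}` -/
def pm {G : Type u} [Group G] (z : G) : Subgroup G where
  carrier := {g | g * z * g⁻¹ = z ∨ g * z * g⁻¹ = z⁻¹}
  one_mem' := Or.inl (by group)
  mul_mem' := by
    rintro a b (ha | ha) (hb | hb)
    · left
      calc a * b * z * (a * b)⁻¹ = a * (b * z * b⁻¹) * a⁻¹ := by group
        _ = z := by rw [hb, ha]
    · right
      calc a * b * z * (a * b)⁻¹ = a * (b * z * b⁻¹) * a⁻¹ := by group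
        _ = (a * z * a⁻¹)⁻¹ := by rw [hb]; group
        _ = z⁻¹ := by rw [ha]
    · right
      calc a * b * z * (a * b)⁻¹ = a * (b * z * b⁻¹) * a⁻¹ := by group
        _ = z⁻¹ := by rw [hb, ha]
    · left
      calc a * b * z * (a * b)⁻¹ = a * (b * z * b⁻¹) * a⁻¹ := by group
        _ = (a * z * a⁻¹)⁻¹ := by rw [hb]; group
        _ = z := by rw [ha, inv_inv]
  inv_mem' := by
    rintro a (ha | ha)
    · left
      calc a⁻¹ * z * a⁻¹⁻¹ = a⁻¹ * (a * z * a⁻¹) * a := by rw [ha]; group
        _ = z := by group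
    · right
      have h1 : z = (a * z⁻¹ * a⁻¹) := by
        calc z = (z⁻¹)⁻¹ := by group
          _ = (a * z * a⁻¹)⁻¹ := by rw [ha]
          _ = a * z⁻¹ * a⁻¹ := by group
      calc a⁻¹ * z * a⁻¹⁻¹ = a⁻¹ * (a * z⁻¹ * a⁻¹) * a := by rw [← h1]; group
        _ = z⁻¹ := by group

/-- `2 |G : pm z| ≤ |P| - 1` for `z ≠ z⁻¹` in a normal subgroup `P` -/
theorem index_pm {G : Type u} [Group G] [Finite G] (P : Subgroup G) [P.Normal] {z : G} (hz : z ∈ P) (hz1 : z ≠ 1)
    (hz2 : z ≠ z⁻¹) : (pm z).index * 2 ≤ Nat.card P - 1 := by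
  classical
  have := Fintype.ofFinite G
  let f : (G ⧸ pm z) × Bool → {x : P // x ≠ 1} := fun q =>
    ⟨⟨q.1.out * (if q.2 then z else z⁻¹) * (q.1.out)⁻¹, by
      refine (inferInstance : P.Normal).conj_mem _ ?_ _
      by_cases h : q.2
      · rw [if_pos h]; exact hz
      · rw [if_neg h]; exact inv_mem hz⟩, by
      intro h
      have h1 : q.1.out * (if q.2 then z else z⁻¹) * (q.1.out)⁻¹ = 1 := congrArg Subtype.val h
      have h2 : (if q.2 then z else z⁻¹) = 1 := by
        have h3 := congrArg (fun w => (q.1.out)⁻¹ * w * q.1.out) h1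
        simpa [mul_assoc] using h3
      by_cases h : q.2
      · rw [if_pos h] at h2; exact hz1 h2
      · rw [if_neg h] at h2; exact hz1 (inv_eq_one.1 h2)⟩
  have hf : Function.Injective f := by
    rintro ⟨q, b⟩ ⟨q', b'⟩ h
    have h1 : q.out * (if b then z else z⁻¹) * (q.out)⁻¹ = q'.out * (if b' then z else z⁻¹) * (q'.out)⁻¹ :=
      congrArg (fun x : {x : P // x ≠ 1} => ((x : P) : G)) h
    have h2 : (q'.out)⁻¹ * q.out * (if b then z else z⁻¹) * ((q'.out)⁻¹ * q.out)⁻¹ = (if b' then z else z⁻¹) := by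
      calc (q'.out)⁻¹ * q.out * (if b then z else z⁻¹) * ((q'.out)⁻¹ * q.out)⁻¹
          = (q'.out)⁻¹ * (q.out * (if b then z else z⁻¹) * (q.out)⁻¹) * q'.out := by group
        _ = (q'.out)⁻¹ * (q'.out * (if b' then z else z⁻¹) * (q'.out)⁻¹) * q'.out := by rw [h1]
        _ = _ := by group
    have hqq : q = q' := by
      have h3 : (q'.out)⁻¹ * q.out ∈ pm z := by
        show _ ∨ _
        cases b <;> cases b' <;> simp only [if_true, if_false, Bool.false_eq_true] at h2
        · left
          have h4 := congrArg Inv.inv h2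
          simpa [mul_assoc] using h4
        · right
          have h4 := congrArg Inv.inv h2
          simpa [mul_assoc] using h4
        · right
          exact h2
        · left
          exact h2
      have h4 : (q'.out : G ⧸ pm z) = (q.out : G ⧸ pm z) := QuotientGroup.eq.2 h3
      rw [QuotientGroup.out_eq', QuotientGroup.out_eq'] at h4
      exact h4.symm
    subst hqq
    have h3 : (if b then z else z⁻¹) = (if b' then z else z⁻¹) := by
      have h4 : (q.out)⁻¹ * q.out = 1 := by group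
      rw [h4, one_mul, inv_one, mul_one] at h2
      exact h2
    cases b <;> cases b' <;> simp only [if_true, if_false, Bool.false_eq_true] at h3
    · rfl
    · exact absurd h3.symm hz2
    · exact absurd h3 hz2
    · rfl
  have h1 := Nat.card_le_card_of_injective f hf
  have h2 : Nat.card {x : P // x ≠ 1} = Nat.card P - 1 := by
    have := Fintype.ofFinite P
    rw [Nat.card_eq_fintype_card, Nat.card_eq_fintype_card, Fintype.card_subtype_compl, Fintype.card_subtype_eq]
  rw [h2, Nat.card_prod, Nat.card_eq_fintype_card (α := Bool), Fintype.card_bool] at h1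
  exact h1

theorem core (B : Base) {G : Type u} [Group G] [Finite G] (P : Subgroup G) [P.Normal] (hP : Nat.card P = 3 ^ 6)
    {M : Type v} [Group M] [Finite M] (hs : IsSimpleGroup M) (hM : Nat.card M = 443520) (φ : G →* M)
    (hφ : Function.Surjective φ) (hker : ¬ 11 ∣ Nat.card φ.ker)
    (c7 : ∀ w : G, orderOf w = 7 → ¬ 27 ∣ Nat.card (centralizer ({w} : Set G)))
    (c11 : ∀ y : G, orderOf y = 11 → ¬ 9 ∣ Nat.card (centralizer ({y} : Set G))) : False := by
  have p7 : Nat.Prime 7 := by norm_num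
  have p11 : Nat.Prime 11 := by norm_num
  have := Fact.mk p7
  have := Fact.mk p11
  have hMG : Nat.card M ∣ Nat.card G := card_dvd_of_surjective φ hφ
  obtain ⟨y, hy⟩ := exists_prime_orderOf_dvd_card' (G := G) 11 ((by rw [hM]; norm_num : 11 ∣ Nat.card M).trans hMG)
  -- the fixed points of `y`
  have hAd : Nat.card ↥(P ⊓ centralizer ({y} : Set G)) ∣ 3 ^ 6 := hP ▸ card_dvd_of_le inf_le_left
  have hAc : Nat.card ↥(P ⊓ centralizer ({y} : Set G)) ∣ Nat.card (centralizer ({y} : Set G)) := card_dvd_of_le inf_le_right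
  have hAm := fix_modEq p11 hy P
  obtain ⟨j, hj, hAj⟩ := (Nat.dvd_prime_pow Nat.prime_three).1 hAd
  have hne : P ⊓ centralizer ({y} : Set G) ≠ ⊥ := by
    intro h
    rw [h, card_bot, hP] at hAm
    norm_num at hAm
  have hj1 : j = 1 := by
    rw [hP, hAj] at hAm
    have hj2 : ¬ 2 ≤ j := fun h => c11 y hy ((pow_dvd_pow 3 h).trans (hAj ▸ hAc))
    interval_cases j
    · norm_num at hAm
    all_goals omega
  rw [hj1, pow_one] at hAj
  obtain ⟨⟨z, hzA⟩, hz1'⟩ := ne_bot_iff_exists_ne_one.1 hne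
  have hz1 : z ≠ 1 := fun h => hz1' (Subtype.ext h)
  have hzP : z ∈ P := (mem_inf.1 hzA).1
  have hzy : z * y = y * z := mem_centralizer_singleton_iff.1 (mem_inf.1 hzA).2
  have hz3 : z ^ 3 = 1 := by
    have h1 : orderOf z ∣ 3 := hAj ▸ Subgroup.orderOf_dvd_natCard _ hzA
    exact orderOf_dvd_iff_pow_eq_one.1 h1
  have hz2 : z ≠ z⁻¹ := by
    intro h
    apply hz1
    have h1 : z * z = 1 := by
      nth_rewrite 2 [h]
      exact mul_inv_cancel z
    have h2 : z ^ 3 = z * z * z := by rw [pow_succ, pow_two]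
    rw [h2, h1, one_mul] at hz3
    exact hz3
  have hidx := index_pm P hzP hz1 hz2
  rw [hP] at hidx
  have hyH : y ∈ pm z := by
    left
    rw [← hzy]
    group
  -- the image
  have hφy : φ y ≠ 1 := by
    intro h
    exact hker (hy ▸ Subgroup.orderOf_dvd_natCard _ (MonoidHom.mem_ker.2 h))
  have hφo : orderOf (φ y) = 11 := by
    have h1 : orderOf (φ y) ∣ 11 := hy ▸ orderOf_map_dvd φ y
    rcases (Nat.dvd_prime p11).1 h1 with h2 | h2
    · exact absurd (orderOf_eq_one_iff.1 h2) hφy
    · exact h2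
  have h11 : 11 ∣ Nat.card ((pm z).map φ) := hφo ▸ Subgroup.orderOf_dvd_natCard _ (mem_map_of_mem φ hyH)
  have htop : (pm z).map φ = ⊤ := by
    by_contra hne2
    have h1 := card_le_simple B hs hM hne2 h11
    have h2 : ((pm z).map φ).index ≤ (pm z).index :=
      Nat.le_of_dvd (Nat.pos_of_ne_zero index_ne_zero_of_finite) ((pm z).index_map_dvd hφ)
    have h3 := ((pm z).map φ).card_mul_index
    rw [hM] at h3
    have h4 : Nat.card ((pm z).map φ) * ((pm z).map φ).index ≤ 660 * 364 := Nat.mul_le_mul h1 (by omega)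
    omega
  -- the commutator subgroup centralizes `z`
  have hcomm : ⁅pm z, pm z⁆ ≤ centralizer ({z} : Set G) := by
    rw [commutator_le]
    intro a ha b hb
    have key : ∀ c ∈ pm z,
        (SemiconjBy c z z ∧ SemiconjBy c z⁻¹ z⁻¹ ∧ SemiconjBy c⁻¹ z z ∧ SemiconjBy c⁻¹ z⁻¹ z⁻¹) ∨
        (SemiconjBy c z z⁻¹ ∧ SemiconjBy c z⁻¹ z ∧ SemiconjBy c⁻¹ z z⁻¹ ∧ SemiconjBy c⁻¹ z⁻¹ z) := by
      intro c hc
      rcases hc with hc | hc
      · left
        have h1 : SemiconjBy c z z := by
          show c * z = z * c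
          calc c * z = c * z * c⁻¹ * c := by group
            _ = z * c := by rw [hc]
        exact ⟨h1, h1.inv_right, h1.inv_symm_left, h1.inv_right.inv_symm_left⟩
      · right
        have h1 : SemiconjBy c z z⁻¹ := by
          show c * z = z⁻¹ * c
          calc c * z = c * z * c⁻¹ * c := by group
            _ = z⁻¹ * c := by rw [hc]
        have h2 : SemiconjBy c z⁻¹ z := by
          have h3 := h1.inv_right
          rwa [inv_inv] at h3
        exact ⟨h1, h2, h2.inv_symm_left, h1.inv_symm_left⟩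
    rw [mem_centralizer_singleton_iff, commutatorElement_def]
    rcases key a ha with ⟨a1, a2, a3, a4⟩ | ⟨a1, a2, a3, a4⟩ <;> rcases key b hb with ⟨b1, b2, b3, b4⟩ | ⟨b1, b2, b3, b4⟩
    · exact (((a1.mul_left b1).mul_left a3).mul_left b3).eq
    · exact (((a1.mul_left b2).mul_left a4).mul_left b3).eq
    · exact (((a2.mul_left b2).mul_left a3).mul_left b3).eq
    · exact (((a2.mul_left b1).mul_left a4).mul_left b3).eq
  have hperf : ⁅(⊤ : Subgroup M), (⊤ : Subgroup M)⁆ = ⊤ := by
    rcases (inferInstance : (⁅(⊤ : Subgroup M), (⊤ : Subgroup M)⁆).Normal).eq_bot_or_eq_top with h | h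
    · exfalso
      rw [commutator_eq_bot_iff_le_centralizer] at h
      let _ : CommGroup M := { (inferInstance : Group M) with
        mul_comm := fun a b => (mem_centralizer_iff.1 (h (mem_top a)) b (mem_top b)).symm }
      have h1 := IsSimpleGroup.prime_card (α := M)
      rw [hM] at h1
      norm_num at h1
    · exact h
  have hCtop : (centralizer ({z} : Set G)).map φ = ⊤ := by
    rw [eq_top_iff, ← hperf, ← htop, ← map_commutator]
    exact map_mono hcomm
  have h7 : 7 ∣ Nat.card (centralizer ({z} : Set G)) := by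
    have h1 : Nat.card M ∣ Nat.card (centralizer ({z} : Set G)) := by
      have h2 : Nat.card ((centralizer ({z} : Set G)).map φ) = Nat.card M := by
        rw [hCtop]
        exact card_top
      rw [← h2]
      exact card_map_dvd _ φ
    exact (by rw [hM]; norm_num : 7 ∣ Nat.card M).trans h1
  obtain ⟨w, hw⟩ := exists_prime_orderOf_dvd_card' 7 h7
  have hwo : orderOf (w : G) = 7 := by rw [Subgroup.orderOf_coe, hw]
  have hwz : (w : G) * z = z * w := mem_centralizer_singleton_iff.1 w.2
  have hBd : Nat.card ↥(P ⊓ centralizer ({(w : G)} : Set G)) ∣ 3 ^ 6 := hP ▸ card_dvd_of_le inf_le_left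
  have hBc : Nat.card ↥(P ⊓ centralizer ({(w : G)} : Set G)) ∣ Nat.card (centralizer ({(w : G)} : Set G)) :=
    card_dvd_of_le inf_le_right
  have hBm := fix_modEq p7 hwo P
  obtain ⟨i, hi, hBi⟩ := (Nat.dvd_prime_pow Nat.prime_three).1 hBd
  have hi0 : i = 0 := by
    rw [hP, hBi] at hBm
    have hi3 : ¬ 3 ≤ i := fun h => c7 w hwo ((pow_dvd_pow 3 h).trans (hBi ▸ hBc))
    interval_cases i
    all_goals omega
  rw [hi0, pow_zero] at hBi
  apply hz1
  have h1 : z ∈ P ⊓ centralizer ({(w : G)} : Set G) := mem_inf.2 ⟨hzP, mem_centralizer_singleton_iff.2 hwz.symm⟩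
  rw [card_eq_one.1 hBi] at h1
  exact mem_bot.1 h1

/-- **the sub-box NOM22 of helper68** -/
theorem noM22 (B : Base) {T : Type u} [Group T] [Finite T] {K : Subgroup T} [K.Normal] {M : Subgroup (T ⧸ K)}
    (hs : IsSimpleGroup M) (hM : Nat.card M = 443520) (h3 : (Nat.card K).factorization 3 = 6)
    (h11 : ¬ 11 ∣ Nat.card K)
    (c7 : ∀ w : T, orderOf w = 7 → ¬ 27 ∣ Nat.card (centralizer ({w} : Set T)))
    (c11 : ∀ y : T, orderOf y = 11 → ¬ 9 ∣ Nat.card (centralizer ({y} : Set T))) : False := by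
  have := Fact.mk Nat.prime_three
  let f : T →* T ⧸ K := QuotientGroup.mk' K
  have hf : Function.Surjective f := QuotientGroup.mk'_surjective K
  have hker : f.ker = K := QuotientGroup.ker_mk' K
  let Q0 : Sylow 3 K := default
  set Q : Subgroup T := (Q0 : Subgroup K).map K.subtype with hQ
  have hQK : Q ≤ K := map_subtype_le _
  have hQc : Nat.card Q = 3 ^ 6 := by
    rw [hQ, card_map_of_injective K.subtype_injective, ← h3]
    exact Q0.card_eq_multiplicity
  have hfr : normalizer (Q : Set T) ⊔ K = ⊤ := Sylow.normalizer_sup_eq_top Q0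
  set G : Subgroup T := normalizer (Q : Set T) ⊓ M.comap f with hG
  have hKf : K ≤ M.comap f := by
    intro k hk
    show f k ∈ M
    rw [← hker] at hk
    rw [MonoidHom.mem_ker.1 hk]
    exact one_mem M
  have hQG : Q ≤ G := le_inf le_normalizer (hQK.trans hKf)
  let φ : G →* M := (f.comp G.subtype).codRestrict M fun g => (mem_inf.1 g.2).2
  have hφ : Function.Surjective φ := by
    rintro ⟨m, hm⟩
    obtain ⟨t, ht⟩ := hf m
    have h1 : t ∈ normalizer (Q : Set T) ⊔ K := by rw [hfr]; trivial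
    obtain ⟨n, hn, k, hk, hnk⟩ := mem_sup_of_normal_right.1 h1
    have h2 : f n = m := by
      rw [← ht, ← hnk, map_mul]
      have h3 : f k = 1 := by rw [← MonoidHom.mem_ker, hker]; exact hk
      rw [h3, mul_one]
    exact ⟨⟨n, mem_inf.2 ⟨hn, by show f n ∈ M; rw [h2]; exact hm⟩⟩, Subtype.ext h2⟩
  have hkc : ¬ 11 ∣ Nat.card φ.ker := by
    intro h
    apply h11
    have h1 : (φ.ker).map G.subtype ≤ K := by
      rintro _ ⟨g, hg, rfl⟩
      rw [← hker, MonoidHom.mem_ker]
      exact congrArg Subtype.val (MonoidHom.mem_ker.1 hg)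
    rw [← card_map_of_injective G.subtype_injective] at h
    exact h.trans (card_dvd_of_le h1)
  have hn : (Q.subgroupOf G).Normal := by
    refine ⟨fun x hx g => ?_⟩
    have h1 : (g : T) ∈ normalizer (Q : Set T) := (mem_inf.1 g.2).1
    exact (mem_normalizer_iff.1 h1 (x : T)).1 hx
  have hPc : Nat.card (Q.subgroupOf G) = 3 ^ 6 := by
    rw [Nat.card_congr (subgroupOfEquivOfLe hQG).toEquiv, hQc]
  have hcent : ∀ w : G, Nat.card (centralizer ({w} : Set G)) ∣ Nat.card (centralizer ({(w : T)} : Set T)) := by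
    intro w
    rw [← card_map_of_injective (K := centralizer ({w} : Set G)) G.subtype_injective]
    apply card_dvd_of_le
    rintro _ ⟨a, ha, rfl⟩
    exact mem_centralizer_singleton_iff.2 (congrArg Subtype.val (mem_centralizer_singleton_iff.1 ha))
  exact core B (Q.subgroupOf G) hPc hs hM φ hφ hkc
    (fun w hw h => c7 w (by rw [Subgroup.orderOf_coe, hw]) (h.trans (hcent w)))
    (fun y hy h => c11 y (by rw [Subgroup.orderOf_coe, hy]) (h.trans (hcent y)))

end Cfsg.Agent.H772.S8.NoM22
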